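import Mathlib

/-!
Unipotent matrices and elements of `p`-power order in characteristic `p`.
-/

set_option autoImplicit false

namespace H63.Unip

open Polynomial

variable {F : Type*} [Field F] {n : Type*} [Fintype n] [DecidableEq n]

theorem sub_one_pow_char_pow (p : ℕ) [Fact p.Prime] [CharP F p] (A : Matrix n n F) (k : ℕ) :
    (A - 1) ^ p ^ k = A ^ p ^ k - 1 := by
  rcases isEmpty_or_nonempty n with h | h
  · exact Subsingleton.elim _ _
  · rw [sub_pow_char_pow_of_commute _ _ (Commute.one_right A), one_pow]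

theorem isNilpotent_sub_one_of_pow_eq_one (p : ℕ) [Fact p.Prime] [CharP F p] {A : Matrix n n F}
    {k : ℕ} (h : A ^ p ^ k = 1) : IsNilpotent (A - 1) :=
  ⟨p ^ k, by rw [sub_one_pow_char_pow p, h, sub_self]⟩

theorem charpoly_eq_of_isNilpotent {N : Matrix n n F} (hN : IsNilpotent N) :
    N.charpoly = X ^ Fintype.card n :=
  sub_eq_zero.mp (Matrix.isNilpotent_charpoly_sub_pow_of_isNilpotent hN).eq_zero

theorem pow_card_eq_zero {N : Matrix n n F} (hN : IsNilpotent N) : N ^ Fintype.card n = 0 := by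
  have := Matrix.aeval_self_charpoly N
  rwa [charpoly_eq_of_isNilpotent hN, aeval_X_pow] at this

theorem pow_eq_zero_of_card_le {N : Matrix n n F} (hN : IsNilpotent N) {k : ℕ}
    (hk : Fintype.card n ≤ k) : N ^ k = 0 :=
  pow_eq_zero_of_le hk (pow_card_eq_zero hN)

theorem pow_eq_one_of_isNilpotent (p : ℕ) [Fact p.Prime] [CharP F p] {A : Matrix n n F}
    (hA : IsNilpotent (A - 1)) {k : ℕ} (hk : Fintype.card n ≤ p ^ k) : A ^ p ^ k = 1 := by
  rw [← sub_eq_zero, ← sub_one_pow_char_pow p, pow_eq_zero_of_card_le hA hk]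

theorem exists_pow_eq_one_of_isNilpotent (p : ℕ) [hp : Fact p.Prime] [CharP F p] {A : Matrix n n F}
    (hA : IsNilpotent (A - 1)) : ∃ k, A ^ p ^ k = 1 :=
  ⟨Fintype.card n, pow_eq_one_of_isNilpotent p hA (Nat.lt_pow_self hp.out.one_lt).le⟩

end H63.Unip
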